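/-
Sylow 2-subgroups of type A12: the Euclidean model of the orthogonal group in dimension 7 and the
self-contained chunks about known groups (paper proofs: notes/X3101.md).
-/
import Cfsg.Agent.H12.OmegaFin
import Cfsg.Agent.H17.GS3
import Cfsg.Prelude.Def_Classical
import Cfsg.Prelude.Def_SporadicB

set_option autoImplicit false
set_option linter.unusedSectionVars false

open Cfsg Subgroup H18 H17.GS
open H19 hiding eq_bot_mono
namespace H17.X
universe u

/-- the conclusion -/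
def Con (G : Type u) [Group G] : Prop :=
  Nonempty (G ≃* alternatingGroup (Fin 12)) ∨ Nonempty (G ≃* alternatingGroup (Fin 13)) ∨
    (∃ (F : Type) (_ : Field F) (_ : Fintype F), Fintype.card F = 2 ∧ Nonempty (G ≃* PSp 3 F)) ∨
    (∃ (F : Type) (_ : Field F) (_ : Fintype F), (Fintype.card F % 8 = 3 ∨ Fintype.card F % 8 = 5) ∧
      Nonempty (G ≃* POmega F (quadFormOdd 3 F)))

section model
variable (F : Type) [Field F]

/-- the Euclidean form -/
noncomputable def q7 : QuadraticForm F (Fin 7 → F) := QuadraticMap.weightedSumSquares F fun _ : Fin 7 => (1 : F)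
theorem q7_apply (v : Fin 7 → F) : q7 F v = ∑ i, v i * v i := by simp [q7]

/-- its orthogonal group -/
abbrev OO : Type := H12.orth (q7 F)
instance [Finite F] : Finite (OO F) :=
  Finite.of_injective (fun g : OO F => (g.1 : (Fin 7 → F) → Fin 7 → F)) fun _ _ e => H12.orth_ext (congrFun e)
/-- the standard basis -/
def ee (i : Fin 7) : Fin 7 → F := Pi.single i 1

/-- `Ω` on the coordinates in `J` -/
noncomputable def La (J : Finset (Fin 7)) : Subgroup (OO F) where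
  carrier := {g | g ∈ commutator (OO F) ∧ ∀ k ∉ J, g.1 (ee F k) = ee F k}
  one_mem' := ⟨one_mem _, fun _ _ => rfl⟩
  mul_mem' h h' := ⟨mul_mem h.1 h'.1, fun k hk => by rw [H12.orth_mul_apply, h'.2 k hk, h.2 k hk]⟩
  inv_mem' {g} h := ⟨inv_mem h.1, fun k hk => by rw [← h.2 k hk, H12.orth_inv_apply', h.2 k hk]⟩

/-- permutation matrices: `pm σ` maps `ee i` to `ee (σ i)` -/
noncomputable def pm : Equiv.Perm (Fin 7) →* OO F := MonoidHom.mk' (fun σ => ⟨LinearEquiv.funCongrLeft F F σ.symm,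
  H12.mem_orth.2 fun v => by
    rw [q7_apply, q7_apply]; exact Equiv.sum_comp σ.symm fun i => v i * v i⟩) fun _ _ => rfl

/-- sign changes on `s` -/
def ngL (s : Finset (Fin 7)) : (Fin 7 → F) →ₗ[F] (Fin 7 → F) :=
  LinearMap.pi fun i => if i ∈ s then -LinearMap.proj i else LinearMap.proj i
theorem ngL_apply (s : Finset (Fin 7)) (v : Fin 7 → F) (i : Fin 7) : ngL F s v i = if i ∈ s then -v i else v i := by
  unfold ngL; rw [LinearMap.pi_apply]; split_ifs <;> rfl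
noncomputable def ng (s : Finset (Fin 7)) : OO F := ⟨LinearEquiv.ofInvolutive (ngL F s) fun v => funext fun i => by
    simp only [ngL_apply]; split_ifs <;> simp, H12.mem_orth.2 fun v => by
  rw [q7_apply, q7_apply]; refine Finset.sum_congr rfl fun i _ => ?_
  change ngL F s v i * ngL F s v i = _
  rw [ngL_apply]; split_ifs <;> simp⟩

/-- the even sign changes on `J` -/
noncomputable def DD (J : Finset (Fin 7)) : Subgroup (OO F) := closure {g | ∃ s ⊆ J, Even s.card ∧ g = ng F s}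

variable {F}
theorem pm_apply (σ : Equiv.Perm (Fin 7)) (v : Fin 7 → F) (i : Fin 7) : (pm F σ).1 v i = v (σ.symm i) := rfl
theorem ng_apply (s : Finset (Fin 7)) (v : Fin 7 → F) (i : Fin 7) : (ng F s).1 v i = if i ∈ s then -v i else v i :=
  ngL_apply F s v i
theorem mem_La {J : Finset (Fin 7)} {g : OO F} :
    g ∈ La F J ↔ g ∈ commutator (OO F) ∧ ∀ k ∉ J, g.1 (ee F k) = ee F k := Iff.rfl
theorem La_mono {J J' : Finset (Fin 7)} (h : J ⊆ J') : La F J ≤ La F J' := fun _ k =>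
  ⟨k.1, fun i hi => k.2 i fun e => hi (h e)⟩
theorem pm_ee (σ : Equiv.Perm (Fin 7)) (i : Fin 7) : (pm F σ).1 (ee F i) = ee F (σ i) := funext fun j => by
  simp [pm_apply, ee, Pi.single_apply, Equiv.symm_apply_eq]
theorem ng_mul (s t : Finset (Fin 7)) : ng F s * ng F t = ng F (symmDiff s t) := H12.orth_ext fun v => funext fun i => by
  rw [H12.orth_mul_apply]; simp only [ng_apply, Finset.mem_symmDiff]
  by_cases h1 : i ∈ s <;> by_cases h2 : i ∈ t <;> simp [h1, h2]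
theorem ng_empty : ng F ∅ = 1 := H12.orth_ext fun v => funext fun i => by simp [ng_apply]
theorem pm_ng (σ : Equiv.Perm (Fin 7)) (s : Finset (Fin 7)) : pm F σ * ng F s * (pm F σ)⁻¹ = ng F (s.image σ) :=
  mul_inv_eq_iff_eq_mul.2 (H12.orth_ext fun v => funext fun i => by
    simp only [H12.orth_mul_apply, ng_apply, pm_apply, Finset.mem_image]
    exact if_congr ⟨fun h => ⟨_, h, by simp⟩, fun ⟨a, h, e⟩ => by simpa [← e] using h⟩ rfl rfl)
theorem pm_La (σ : Equiv.Perm (Fin 7)) {J : Finset (Fin 7)} {g : OO F} (h : g ∈ La F J) :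
    pm F σ * g * (pm F σ)⁻¹ ∈ La F (J.image σ) := ⟨Normal.conj_mem inferInstance _ h.1 _, fun k hk => by
  rw [← map_inv, H12.orth_mul_apply, H12.orth_mul_apply, pm_ee, h.2 _ fun e => hk (Finset.mem_image.2 ⟨_, e, by simp⟩),
    pm_ee]; simp⟩
end model

/-- odd order extensions inside the automorphism group are trivial -/
def Oi (L : Type) [Group L] : Prop := ∀ (Y : Type u) [Group Y] [Finite Y] (N : Subgroup Y), N.Normal →
  Nonempty (N ≃* L) → C(N) = ⊥ → Odd N.index → N = ⊤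

/-! ### chunk OMa: isomorphisms -/
def OMa : Prop := ∀ (F : Type) [Field F] [Fintype F], Odd (Fintype.card F) →
  Nonempty (La F .univ ≃* POmega F (quadFormOdd 3 F)) ∧ IsSimpleGroup (La F .univ) ∧
  (∀ J : Finset (Fin 7), J.card = 5 → Nonempty (La F J ≃* PSp 2 F) ∧ Sim (La F J) ∧
    (¬ 2 ^ 7 ∣ #(La F J) → Fintype.card F % 8 = 3 ∨ Fintype.card F % 8 = 5) ∧
    ∀ i ∈ J, O(La F J ⊓ C[ng F (J.erase i)]) = ⊥) ∧
  (5 ≤ Fintype.card F → ∀ T : Finset (Fin 7), T.card = 3 → Sim (La F T))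

/-! ### chunk OMb: elementary facts -/
def OMb : Prop := ∀ (F : Type) [Field F] [Fintype F], Odd (Fintype.card F) →
  (∀ s : Finset (Fin 7), ng F s = 1 → s = ∅) ∧
  (∀ J s : Finset (Fin 7), s ⊆ J → Even s.card → ng F s ∈ La F J) ∧
  (∀ (J : Finset (Fin 7)) (σ : Equiv.Perm (Fin 7)), σ.support ⊆ J → Equiv.Perm.sign σ = 1 → pm F σ ∈ La F J) ∧
  (∀ (g : OO F) (J : Finset (Fin 7)), g ∈ DD F J ↔ ∃ s ⊆ J, Even s.card ∧ g = ng F s) ∧
  (∀ J : Finset (Fin 7), 3 ≤ J.card → La F J ⊓ C(DD F J) = DD F J) ∧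
  (∀ s t : Finset (Fin 7), IsConj (ng F s) (ng F t) → s.card = t.card) ∧
  (∀ (J : Finset (Fin 7)) (a b : Fin 7) (P : Subgroup (OO F)), P ≤ ⁅P, P⁆ → P ≤ La F J ⊓ C[ng F {a, b}] →
    P ≤ La F (J \ {a, b})) ∧
  (∀ (a b c : Fin 7) (y : OO F), a ≠ b → b ≠ c → a ≠ c → Odd (orderOf y) → y ∈ C[ng F {a, b}] → y ∈ C[ng F {b, c}] →
    y.1 (ee F b) = ee F b) ∧
  (∀ T s : Finset (Fin 7), T ⊆ s ∨ Disjoint T s → La F T ≤ C[ng F s]) ∧
  (Fintype.card F = 3 → ∀ J : Finset (Fin 7), J.card = 5 → (∀ a ∈ J, ∀ b ∈ J, a ≠ b →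
      La F J ⊓ C[ng F {a, b}] ≤ N(DD F J) ∧ Sol (La F J ⊓ C[ng F {a, b}])) ∧
    ∀ i ∈ J, ∀ j ∈ J, ∀ g ∈ La F J, ∀ h ∈ La F J,
      orderOf (g * ng F (J.erase i) * g⁻¹ * (h * ng F (J.erase j) * h⁻¹)) ≤ 3)

/-! ### chunk GN: generation -/
def GN : Prop := ∀ (F : Type) [Field F] [Fintype F], Odd (Fintype.card F) → ∀ (J : Finset (Fin 7)) (i : Fin 7)
  (σ : Equiv.Perm (Fin 7)), (5 ≤ J.card ∨ J.card = 4 ∧ 5 ≤ Fintype.card F) → σ.IsThreeCycle → σ.support ⊆ J →
    σ i ≠ i → La F J ≤ La F (J.erase i) ⊔ zpowers (pm F σ)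

/-- `g` permutes the groups `K T` as `σ` does -/
def AcK {G : Type u} [Group G] (K : Finset (Fin 7) → Subgroup G) (g : G) (σ : Equiv.Perm (Fin 7)) : Prop :=
  ∀ T : Finset (Fin 7), T.card = 3 → cj g (K T) = K (T.image σ)

/-- the five coordinates -/
def J5 : Finset (Fin 7) := {0, 1, 2, 3, 6}

/-! ### chunk RC: recognition -/
def RC : Prop := ∀ (F : Type) [Field F] [Fintype F], Odd (Fintype.card F) → 5 ≤ Fintype.card F →
  ∀ (G : Type u) [Group G] (K : Finset (Fin 7) → Subgroup G) (f : La F J5 →* G) (n : G) (τ : Equiv.Perm (Fin 7)),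
    (∀ T T' : Finset (Fin 7), T.card = 3 → T'.card = 3 → Disjoint T T' → K T ≤ C(K T')) →
    (∀ T ⊆ J5, T.card = 3 → ((La F T).subgroupOf (La F J5)).map f = K T) →
    n ∈ K {4, 5, 6} → τ.IsThreeCycle → τ.support = {4, 5, 6} → AcK K n τ →
    (∀ (σ : Equiv.Perm (Fin 7)) (h : pm F σ ∈ La F J5), σ.IsThreeCycle → σ.support ⊆ J5 → AcK K (f ⟨_, h⟩) σ) →
    ∃ Ψ : La F .univ →* G, ∀ T : Finset (Fin 7), T.card = 3 → K T ≤ Ψ.range

/-! ### chunk LB: local balance -/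
def LB : Prop :=
  (∀ n, n = 8 ∨ n = 9 → Oi.{u} (alternatingGroup (Fin n)) ∧
    (∀ b : alternatingGroup (Fin n), orderOf b = 2 → O(C[b]) = ⊥) ∧
    ∀ (A : Subgroup (alternatingGroup (Fin n))) (x : alternatingGroup (Fin n)), Abelem 2 A → #A = 16 →
      x ∈ N(A) → orderOf x ≠ 5) ∧
  ∀ (F : Type) [Field F] [Fintype F], Fintype.card F = 3 → Oi.{u} (PSp 2 F)

/-! ### chunk FI: the filters -/
def FI : Prop := ∀ (G : Type u) [Group G] [Finite G] [IsSimpleGroup G], ¬ IsMulCommutative G → 2 ^ 9 ∣ Nat.card G →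
  ¬ 2 ^ 10 ∣ Nat.card G → ((∃ D : Set G, IsThreeTranspositionClass D) ∨
    ∃ n, Nonempty (G ≃* alternatingGroup (Fin n))) → Con G

end H17.X
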