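import Cfsg.Agent.H7.Quot
import Cfsg.Agent.H6.Degree

/-! A principal block argument: an abelian `p`-subgroup `W` such that any two conjugates of `W` are
conjugate by a "`p'`-translation" lies in a proper normal subgroup. -/

set_option autoImplicit false
set_option linter.unusedSectionVars false

open Cfsg H5 H7 Finset
open scoped ComplexConjugate

namespace H17.SC

section PD
variable {G : Type*} [Group G] [Fintype G] {χ : G → ℂ}

theorem gram (h : IsIrrCharacter G χ) {ι : Type*} [Fintype ι] (x x' : ι → G) :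
    ∑ g, conj (∑ i, χ (g * x i)) * ∑ j, χ (g * x' j) =
      Nat.card G / χ 1 * ∑ i, ∑ j, χ ((x i)⁻¹ * x' j) := by
  classical
  simp only [map_sum, sum_mul_sum]
  simp only [mul_sum]
  rw [sum_comm]
  refine sum_congr rfl fun i _ => ?_
  rw [sum_comm]
  refine sum_congr rfl fun j _ => ?_
  have h1 := h.sum_mul_apply_inv h ((x i)⁻¹ * x' j)
  rw [if_pos rfl] at h1
  rw [div_mul_eq_mul_div, ← h1]
  refine Fintype.sum_equiv (Equiv.mulRight (x i)) _ _ fun g => ?_
  simp only [Equiv.coe_mulRight, h.isCharacter.apply_inv, mul_assoc, mul_inv_cancel_left]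
  ring

theorem pd (h : IsIrrCharacter G χ) {ι : Type*} [Fintype ι] (x x' : ι → G) :
    2 * (∑ i, ∑ j, χ ((x i)⁻¹ * x' j)).re ≤
      (∑ i, ∑ j, χ ((x i)⁻¹ * x j)).re + (∑ i, ∑ j, χ ((x' i)⁻¹ * x' j)).re := by
  obtain ⟨n, hn, e⟩ := h.exists_apply_one
  have hc : (0 : ℝ) < Nat.card G / n := div_pos (card_pos_real G) (Nat.cast_pos.2 hn)
  have k : ∀ y y' : ι → G, ∑ g, (conj (∑ i, χ (g * y i)) * ∑ j, χ (g * y' j)).re =
      Nat.card G / n * (∑ i, ∑ j, χ ((y i)⁻¹ * y' j)).re := fun y y' => by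
    rw [← Complex.re_sum, gram h, e, show (Nat.card G : ℂ) / n = ((Nat.card G / n : ℝ) : ℂ) by
      push_cast; rfl, Complex.re_ofReal_mul]
  refine le_of_mul_le_mul_left ?_ hc
  rw [mul_add, mul_left_comm, ← k, ← k, ← k, ← sum_add_distrib, mul_sum]
  refine sum_le_sum fun g _ => ?_
  generalize ∑ i, χ (g * x i) = a
  generalize ∑ i, χ (g * x' i) = b
  simp only [Complex.mul_re, Complex.conj_re, Complex.conj_im]
  nlinarith [sq_nonneg (a.re - b.re), sq_nonneg (a.im - b.im)]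

variable {A : Type*} [Group A] [Fintype A]

/-- `∑_r χ(i(r) φ(r⁻¹ w))` -/
noncomputable def Gw (χ : G → ℂ) (i φ : A →* G) (w : A) : ℂ := ∑ r, χ (i r * φ (r⁻¹ * w))

theorem Bw (h : IsClassFunction G χ) (hc : ∀ a b : A, a * b = b * a) (i φ : A →* G) (w w' : A) :
    ∑ u, ∑ v, χ ((i u * φ (u⁻¹ * w))⁻¹ * (i v * φ (v⁻¹ * w'))) =
      Fintype.card A * Gw χ i φ (w' * w⁻¹) := by
  rw [← card_univ, ← nsmul_eq_mul, ← sum_const]
  refine sum_congr rfl fun u _ => (Fintype.sum_equiv (Equiv.mulLeft u) _ _ fun r => ?_).symm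
  rw [mul_inv_rev, mul_assoc, h.mul_comm_apply (φ _)⁻¹, Equiv.coe_mulLeft]
  have : φ (r⁻¹ * (w' * w⁻¹)) = φ ((u * r)⁻¹ * w') * (φ (u⁻¹ * w))⁻¹ := by
    rw [← map_inv, ← map_mul]
    congr 1
    rw [show (u * r)⁻¹ * w' * (u⁻¹ * w)⁻¹ = r⁻¹ * (u⁻¹ * ((w' * w⁻¹) * u)) by group, hc _ u]
    group
  rw [this]
  simp [mul_assoc]

theorem Gw_le (h : IsIrrCharacter G χ) (hc : ∀ a b : A, a * b = b * a) (i φ : A →* G) (w : A) :
    (Gw χ i φ w).re ≤ (Gw χ i φ 1).re := by
  have := pd h (fun u => i u * φ (u⁻¹ * 1)) (fun u => i u * φ (u⁻¹ * w))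
  rw [Bw h.isClassFunction hc, Bw h.isClassFunction hc, Bw h.isClassFunction hc] at this
  simp only [inv_one, mul_one, mul_inv_cancel, ← nsmul_eq_mul, Complex.re_nsmul] at this
  simp only [nsmul_eq_mul] at this
  have hp : (0 : ℝ) < Fintype.card A := Nat.cast_pos.2 Fintype.card_pos
  nlinarith

theorem sum_Gw (i φ : A →* G) : ∑ u, ∑ v, χ (i u * φ v) = ∑ w, Gw χ i φ w := by
  simp only [Gw]
  rw [sum_comm (f := fun w r => χ (i r * φ (r⁻¹ * w)))]
  exact sum_congr rfl fun u _ => Fintype.sum_equiv (Equiv.mulLeft u) _ _ fun v => by simp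

theorem sum_sub (h : IsCharacter G χ) (S : Subgroup G) [Fintype S] :
    ∃ m : ℕ, ∑ s : S, χ s = Nat.card S * m := by
  obtain ⟨m, e⟩ := (h.restrict S).exists_classInner_nat isCharacter_one
  refine ⟨m, ?_⟩
  rw [← e, classInner_one_right, mul_inv_cancel_left₀ (card_ne_zero_complex S)]

end PD

theorem arith {ι : Type*} (B : Finset ι) {t₀ : ι} (h0 : t₀ ∈ B) (s d : ι → ℝ) {q : ℝ} (hq : 3 ≤ q)
    (hd : ∀ t, 0 < d t) (h1 : ∀ t ∈ B, q ^ 2 * s t * d t ≤ (q - 1) * (s t + d t) ^ 2)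
    (s0 : s t₀ = q - 1) (d0 : d t₀ = 1) (h2 : ∀ t ∈ B, t ≠ t₀ → s t < (q - 1) * d t)
    (h3 : ∑ t ∈ B, s t * ((s t + d t) ^ 2 / d t) = q * ∑ t ∈ B, s t ^ 2)
    (h4 : ∑ t ∈ B, s t * d t = 0) (h5 : 2 * q * (q - 1) ≤ ∑ t ∈ B, s t ^ 2) : False := by
  classical
  have e1 : ∀ t, s t * ((s t + d t) ^ 2 / d t) = s t ^ 3 / d t + 2 * s t ^ 2 + s t * d t :=
    fun t => by have := (hd t).ne'; field_simp; ring
  simp only [e1, sum_add_distrib, h4, ← mul_sum] at h3
  rw [← add_sum_erase _ _ h0] at h3 h4 h5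
  rw [← add_sum_erase B (fun t => s t ^ 2) h0] at h3
  simp only [s0, d0] at h3 h4 h5
  have k1 : ∀ t ∈ B.erase t₀, (q - 1) * (s t ^ 3 / d t) ≤ s t ^ 2 := fun t ht => by
    have a1 := h1 t (mem_of_mem_erase ht)
    have a2 := h2 t (mem_of_mem_erase ht) (ne_of_mem_erase ht)
    have a3 : (q - 1) * s t ≤ d t := by
      by_contra a4
      nlinarith [mul_pos (sub_pos.2 a2) (sub_pos.2 (not_le.1 a4))]
    rw [← mul_div_assoc, div_le_iff₀ (hd t)]
    nlinarith [mul_le_mul_of_nonneg_left a3 (sq_nonneg (s t))]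
  have k2 : ∃ t ∈ B.erase t₀, (q - 1) * (s t ^ 3 / d t) < s t ^ 2 := by
    by_contra a
    have : 0 ≤ ∑ t ∈ B.erase t₀, s t * d t := sum_nonneg fun t ht => by
      refine mul_nonneg (not_lt.1 fun a1 => a ⟨t, ht, ?_⟩) (hd t).le
      have : s t ^ 3 / d t < 0 := div_neg_of_neg_of_pos (Odd.pow_neg (by decide) a1) (hd t)
      nlinarith [sq_nonneg (s t)]
    linarith
  have k3 := sum_lt_sum k1 k2
  rw [← mul_sum] at k3
  generalize ∑ t ∈ B.erase t₀, s t ^ 3 / d t = C at h3 k3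
  generalize ∑ t ∈ B.erase t₀, s t ^ 2 = A at h3 h5 k3
  have e2 : C = (q - 2) * A - (q - 1) ^ 2 := by linarith
  have e3 : (q - 1) * (q + 1) ≤ A := by linarith
  have e4 : 0 < q ^ 2 - 3 * q + 1 := by nlinarith
  have e5 := mul_le_mul_of_nonneg_left e3 e4.le
  have e6 : 0 ≤ (q - 1) * (q ^ 2 * (q - 3)) := by
    have : 0 ≤ q - 1 := by linarith
    have : 0 ≤ q - 3 := by linarith
    positivity
  rw [e2] at k3
  nlinarith

section Main
variable {G : Type*} [Group G] [Finite G] {p : ℕ} {M : Ideal AlgInt}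

theorem dvd_orderOf (hp : p.Prime) {S : Subgroup G} (hS : IsPGroup p S) {s : G} (hs : s ∈ S)
    (h1 : s ≠ 1) : p ∣ orderOf s := by
  have : Fact p.Prime := ⟨hp⟩
  obtain ⟨k, hk⟩ := IsPGroup.iff_orderOf.1 hS ⟨s, hs⟩
  rw [Subgroup.orderOf_mk] at hk
  rcases k with _ | k
  · exact absurd (orderOf_eq_one_iff.1 (by simpa using hk)) h1
  · exact hk ▸ dvd_pow_self p k.succ_ne_zero

theorem isPElt_of_mem (hp : p.Prime) {S : Subgroup G} (hS : IsPGroup p S) {s : G} (hs : s ∈ S) :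
    IsPElt p s := by
  have : Fact p.Prime := ⟨hp⟩
  obtain ⟨k, hk⟩ := IsPGroup.iff_orderOf.1 hS ⟨s, hs⟩
  exact ⟨k, by rwa [Subgroup.orderOf_mk] at hk⟩

/-- The dimension of the principal block is at least the order of a `p`-subgroup. -/
theorem dim_b0 (hM : IsPModular p M) [DecidablePred (· ∈ principalBlock M G)] {S : Subgroup G}
    (hS : IsPGroup p S) : (Nat.card S : ℝ) ≤
      (∑ χ : IrrCharacter G with χ ∈ principalBlock M G, χ.1 1 * conj (χ.1 1)).re := by
  classical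
  have := Fintype.ofFinite G
  have h1 : ∑ χ : IrrCharacter G with χ ∈ principalBlock M G, χ.1 1 * conj (χ.1 1) =
      ∑ s : S, ∑ χ : IrrCharacter G with χ ∈ principalBlock M G, χ.1 1 * conj (χ.1 s) := by
    rw [Fintype.sum_eq_single 1 fun s hs => weak_block_orth hM isPBlock_principalBlock
      (by simpa using hM.1.one_lt.ne') (dvd_orderOf hM.1 hS s.2 (by simpa using hs))]
    rfl
  rw [h1, sum_comm, Complex.re_sum]
  refine le_trans ?_ (single_le_sum (a := irrOne G) (fun χ _ => ?_)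
    (by simp [irrOne_mem_principalBlock hM]))
  · simp [irrOne]
  · obtain ⟨m, e⟩ := sum_sub χ.2.isCharacter S
    obtain ⟨n, -, e'⟩ := χ.2.exists_apply_one
    rw [← mul_sum, ← map_sum, e, e']
    simp only [map_natCast, ← Nat.cast_mul, Complex.natCast_re]
    positivity

theorem col_ge (hM : IsPModular p M) [DecidablePred (· ∈ principalBlock M G)] {S : Subgroup G}
    (hS : IsPGroup p S) {u : G} (hu : IsPElt p u) (hC : S ≤ Subgroup.centralizer {u}) :
    (Nat.card S : ℝ) ≤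
      (∑ χ : IrrCharacter G with χ ∈ principalBlock M G, χ.1 u * conj (χ.1 u)).re := by
  classical
  have h1 := sum_principal_mul_conj' hM hu (y := 1) (y' := 1) (by simpa using hM.1.one_lt.ne')
    (by simpa using hM.1.one_lt.ne')
  simp only [OneMemClass.coe_one, mul_one] at h1
  rw [h1, ← Nat.card_congr (Subgroup.subgroupOfEquivOfLe hC).toEquiv]
  exact dim_b0 hM (hS.of_equiv (Subgroup.subgroupOfEquivOfLe hC).symm)

/-- The hypothesis: any conjugate of `W` is conjugate to `W` by a `p'`-translation. -/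
structure Hyp (p : ℕ) (W : Subgroup G) : Prop where
  pp : p.Prime
  pg : IsPGroup p W
  ab : ∀ a ∈ W, ∀ b ∈ W, a * b = b * a
  key : ∀ g : G, ∃ y : G, y⁻¹ * g ∈ Subgroup.normalizer (W : Set G) ∧
    (∀ u ∈ W, ¬ p ∣ orderOf (u * (y * u⁻¹ * y⁻¹))) ∧ ∀ u ∈ W, ∀ v ∈ W, u * v ≠ 1 →
      ∃ c ∈ centralizerPPrimeCore p (u * v), IsConj (u * v * c) (u * (y * v * y⁻¹))

theorem core {W : Subgroup G} (H : Hyp p W) (h3 : 3 ≤ Nat.card W)
    (hN : ∀ N : Subgroup G, N.Normal → W ≤ N → N = ⊤)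
    (hL : ∀ u ∈ W, u ≠ 1 → (∃ v ∈ W, v ≠ u ∧ IsConj u v) ∨ ∃ S : Subgroup G, IsPGroup p S ∧
      S ≤ Subgroup.centralizer {u} ∧ 2 * Nat.card W ≤ Nat.card S) : False := by
  classical
  have := Fintype.ofFinite G
  obtain ⟨M, hM⟩ := exists_isPModular H.pp
  set B : Finset (IrrCharacter G) := univ.filter (· ∈ principalBlock M G) with hB
  have mB : ∀ {χ}, χ ∈ B ↔ χ ∈ principalBlock M G := by simp [hB]
  set E : Finset W := univ.erase 1 with hE
  have mE : ∀ {w : W}, w ∈ E ↔ (w : G) ≠ 1 := by simp [hE]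
  have cE : (E.card : ℝ) = Nat.card W - 1 := by
    rw [hE, card_erase_of_mem (mem_univ _), card_univ, Nat.cast_sub Fintype.card_pos,
      Nat.card_eq_fintype_card, Nat.cast_one]
  have hc : ∀ a b : W, a * b = b * a := fun a b => Subtype.ext (H.ab _ a.2 _ b.2)
  let s : IrrCharacter G → ℝ := fun χ => (∑ w ∈ E, χ.1 w).re
  let d : IrrCharacter G → ℝ := fun χ => (χ.1 1).re
  have hd : ∀ χ : IrrCharacter G, χ.1 1 = d χ := fun χ => by
    obtain ⟨n, -, e⟩ := χ.2.exists_apply_one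
    simp [d, e]
  have hS : ∀ χ : IrrCharacter G, ∑ w : W, χ.1 w = χ.1 1 + ∑ w ∈ E, χ.1 w := fun χ =>
    (add_sum_erase _ (fun w : W => χ.1 w) (mem_univ 1)).symm
  have hs : ∀ χ : IrrCharacter G, ∑ w ∈ E, χ.1 w = s χ := fun χ => by
    obtain ⟨m, e⟩ := sum_sub χ.2.isCharacter W
    rw [hS, hd] at e
    have := eq_sub_of_add_eq' e
    simp only [s, this]
    apply Complex.ext <;> simp
  have hs' : ∀ χ : IrrCharacter G, ∑ w ∈ E, conj (χ.1 w) = s χ := fun χ => by
    rw [← map_sum, hs, Complex.conj_ofReal]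
  have F1 : ∀ h : G, ¬ p ∣ orderOf h → ∑ χ ∈ B, (s χ : ℂ) * χ.1 h = 0 := fun h hh => by
    simp only [← hs', sum_mul]
    rw [sum_comm]
    refine sum_eq_zero fun w hw => ?_
    simp only [mul_comm (conj _)]
    exact weak_block_orth hM isPBlock_principalBlock hh (dvd_orderOf H.pp H.pg w.2 (mE.1 hw))
  have F2 : ∀ g : G, ∃ z : W → G, (∀ r, ¬ p ∣ orderOf (z r)) ∧ ∀ χ ∈ B,
      ∑ u : W, ∑ v : W, χ.1 (u * (g * v * g⁻¹)) = ∑ r, χ.1 (z r) + Nat.card W * s χ ∧
      Nat.card W * s χ ≤ (Nat.card W - 1) * (∑ r, χ.1 (z r)).re := fun g => by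
    obtain ⟨y, n1, n2, n3⟩ := H.key g
    refine ⟨fun r => r * (y * r⁻¹ * y⁻¹), fun r => n2 _ r.2, fun χ hχ => ?_⟩
    let φ : W →* G := (MulAut.conj y).toMonoidHom.comp W.subtype
    have g1 : Gw χ.1 W.subtype φ 1 = ∑ r : W, χ.1 (r * (y * r⁻¹ * y⁻¹)) := by simp [Gw, φ]
    have g2 : ∀ w ∈ E, Gw χ.1 W.subtype φ w = Nat.card W * χ.1 w := fun w hw => by
      rw [Gw, Nat.card_eq_fintype_card, ← card_univ, ← nsmul_eq_mul, ← sum_const]
      refine sum_congr rfl fun r _ => ?_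
      obtain ⟨c, c1, c2⟩ := n3 r r.2 ((r : G)⁻¹ * w) (W.mul_mem (W.inv_mem r.2) w.2)
        (by simpa using mE.1 hw)
      rw [mul_inv_cancel_left] at c1 c2
      rw [← principal_apply_mul_of_mem hM (mB.1 hχ) (isPElt_of_mem H.pp H.pg w.2) c1,
        χ.2.isClassFunction.eq_of_isConj c2]
      simp [φ]
    constructor
    · rw [← g1, ← hs, mul_sum, ← sum_congr rfl g2, add_sum_erase _ _ (mem_univ 1), ← sum_Gw]
      refine sum_congr rfl fun u _ => Fintype.sum_equiv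
        (W.normalizerMonoidHom ⟨_, n1⟩).toEquiv _ _ fun v => ?_
      simp [φ, mul_assoc]
    · have := sum_le_sum fun w (_ : w ∈ E) => Gw_le χ.2 hc W.subtype φ w
      rw [sum_const, nsmul_eq_mul, cE, g1, ← Complex.re_sum, sum_congr rfl g2, ← mul_sum, hs] at this
      simpa using this
  choose z z1 z2 using F2
  have F3 : ∀ χ : IrrCharacter G, ∑ g : G, ∑ u : W, ∑ v : W, χ.1 (u * (g * v * g⁻¹)) =
      ((Nat.card G * ((s χ + d χ) ^ 2 / d χ) : ℝ) : ℂ) := fun χ => by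
    rw [sum_comm]
    simp only [sum_comm (s := (univ : Finset G)), χ.2.isClassFunction.mul_comm_apply (_ : W),
      H6.sum_conj_mul χ.2, ← sum_div, ← sum_mul, ← mul_sum, hS, hs, hd]
    push_cast; ring
  have hG := card_pos_real G
  refine arith B (mB.2 (irrOne_mem_principalBlock hM)) s d (q := Nat.card W) (by exact_mod_cast h3)
    (fun χ => χ.2.apply_one_re_pos) (fun χ hχ => ?_) ?_ (by simp [d, irrOne]) (fun χ _ h1 => ?_)
    ?_ ?_ ?_
  · have a1 := congrArg Complex.re (F3 χ)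
    rw [Complex.ofReal_re, sum_congr rfl fun g _ => (z2 g χ hχ).1, Complex.re_sum] at a1
    have a2 := sum_le_sum fun g (_ : g ∈ univ) => (z2 g χ hχ).2
    simp only [Complex.add_re, sum_add_distrib, sum_const, card_univ, nsmul_eq_mul, ← mul_sum,
      ← Nat.card_eq_fintype_card, Complex.mul_re, Complex.natCast_re, Complex.ofReal_re,
      Complex.natCast_im, zero_mul, sub_zero] at a1 a2
    have a3 : (Nat.card W : ℝ) ^ 2 * s χ ≤ (Nat.card W - 1) * ((s χ + d χ) ^ 2 / d χ) := by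
      refine le_of_mul_le_mul_left ?_ hG
      rw [mul_left_comm _ (_ - _ : ℝ), ← a1]
      nlinarith
    rwa [← mul_div_assoc, le_div_iff₀ χ.2.apply_one_re_pos] at a3
  · simp [s, irrOne, cE]
  · have a1 : ¬ W ≤ charKer χ.1 := fun a => h1 (Subtype.ext (χ.2.charKer_eq_top_iff.1
      (hN _ χ.2.charKer_normal a)))
    obtain ⟨w, w1, w2⟩ := SetLike.not_le_iff_exists.1 a1
    have := sum_lt_sum (s := E) (f := fun w : W => (χ.1 w).re) (g := fun _ => (χ.1 1).re)
      (fun w _ => χ.2.isCharacter.re_apply_le w) ⟨⟨w, w1⟩, mE.2 fun e => w2 (by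
        rw [show w = 1 from e]; exact one_mem _), χ.2.isCharacter.re_lt_of_not_mem_charKer w2⟩
    rwa [← Complex.re_sum, sum_const, nsmul_eq_mul, cE] at this
  · refine mul_left_cancel₀ hG.ne' (Complex.ofReal_injective ?_)
    have a1 : ∀ g : G, ∑ χ ∈ B, (s χ : ℂ) * ∑ u : W, ∑ v : W, χ.1 (u * (g * v * g⁻¹)) =
        Nat.card W * ∑ χ ∈ B, (s χ : ℂ) ^ 2 := fun g => by
      rw [sum_congr rfl fun χ hχ => by rw [(z2 g χ hχ).1, mul_add, mul_sum], sum_add_distrib,
        sum_comm, sum_eq_zero fun r _ => F1 _ (z1 g r), zero_add, mul_sum]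
      exact sum_congr rfl fun _ _ => by ring
    have a2 := sum_congr rfl fun g (_ : g ∈ univ) => a1 g
    rw [sum_comm, sum_const, card_univ, nsmul_eq_mul, ← Nat.card_eq_fintype_card] at a2
    simp only [← mul_sum, F3] at a2
    push_cast at a2 ⊢
    rw [← a2, mul_sum]
    exact sum_congr rfl fun _ _ => by ring
  · have := F1 1 (by simpa using H.pp.one_lt.ne')
    simp only [hd] at this
    exact_mod_cast this
  · let T : W → W → ℝ := fun u v => (∑ χ ∈ B, χ.1 u * conj (χ.1 v)).re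
    have a1 : ∑ χ ∈ B, s χ ^ 2 = ∑ u ∈ E, ∑ v ∈ E, T u v := by
      simp only [T, ← Complex.re_sum]
      simp only [sum_comm (t := B), ← mul_sum, ← sum_mul, hs, hs']
      rw [Complex.re_sum]
      exact sum_congr rfl fun _ _ => by simp [sq]
    have pe : ∀ u : W, IsPElt p (u : G) := fun u => isPElt_of_mem H.pp H.pg u.2
    have a2 : ∀ u : W, (Nat.card W : ℝ) ≤ T u u := fun u => col_ge hM H.pg (pe u) fun w hw =>
      Subgroup.mem_centralizer_singleton_iff.2 (H.ab _ hw _ u.2)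
    have a3 : ∀ u v : W, IsConj (u : G) v → T u v = T u u := fun u v h => by
      simp only [T, ← fun χ : IrrCharacter G => χ.2.isClassFunction.eq_of_isConj h]
    have a4 : ∀ u v : W, 0 ≤ T u v := fun u v => by
      by_cases h : IsConj (u : G) v
      · exact a3 u v h ▸ (Nat.cast_nonneg _).trans (a2 u)
      · simp only [T, ← irr_apply_inv]
        rw [block_orth hM isPBlock_principalBlock (isPPart_self H.pp.one_lt.ne' (pe u))
          (isPPart_self H.pp.one_lt.ne' (pe v)) h, Complex.zero_re]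
    rw [a1, ← cE, mul_comm, ← nsmul_eq_mul, ← sum_const]
    refine sum_le_sum fun u hu => ?_
    rcases hL u u.2 (mE.1 hu) with ⟨v, v1, v2, v3⟩ | ⟨S, S1, S2, S3⟩
    · refine le_trans ?_ (sum_le_sum_of_subset_of_nonneg (s := {u, ⟨v, v1⟩}) ?_ fun v _ _ => a4 u v)
      · rw [sum_pair fun e => v2 (congrArg Subtype.val e).symm, a3 u ⟨v, v1⟩ v3]
        linarith [a2 u]
      · refine insert_subset hu (singleton_subset_iff.2 (mE.2 fun e => mE.1 hu ?_))
        exact isConj_one_left.1 ((show (v : G) = 1 from e) ▸ v3)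
    · refine le_trans ?_ (single_le_sum (fun v _ => a4 u v) hu)
      exact le_trans (by exact_mod_cast S3) (col_ge hM S1 (pe u) S2)

end Main

end H17.SC
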